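import Cfsg.Agent.Lib.Helper3.S44.Iso
import Cfsg.Agent.Lib.Helper3.Graph4
import Cfsg.Agent.S1683
import Cfsg.Agent.S1695

set_option autoImplicit false
set_option maxRecDepth 100000

namespace Cfsg.Agent.Lib.Helper3.S44

open Cfsg.Agent.Lib.Helper11 Cfsg.Agent.Lib.Helper3 Cfsg.Spor Cfsg.Spor.He

set_option maxHeartbeats 0

/-- the presentation map -/
noncomputable abbrev mkHe : FreeGroup Gen →* Cfsg.Spor.He :=
  PresentedGroup.mk (coxRelators edges ∪ {r | r ∈ extra})

/-- the subgroup `S4(4):2` -/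
noncomputable abbrev HH : Subgroup Cfsg.Spor.He :=
  (Subgroup.closure ({a, c, d, e, f, (a * b) ^ 2, (b * c * d * e) ^ 7} :
    Set (FreeGroup Gen))).map mkHe

/-- the generators in the presented group -/
noncomputable def vG (l : ℕ) : Cfsg.Spor.He :=
  if l = 1 then mkHe (e1.eval (fun l => He2058.LTFm.getD l 1))
  else if l = 2 then mkHe (e2.eval (fun l => He2058.LTFm.getD l 1)) else 1

theorem bchk1 : blkChk (ntOf He2058.ntl) (e1.letters He2058.INVm) (tb PTH 12) (tb HI1 9)
    (tb BLK 7) ntl 1 425 := by decide +kernel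
theorem bchk2 : blkChk (ntOf He2058.ntl) (e2.letters He2058.INVm) (tb PTH 12) (tb HI2 9)
    (tb BLK 7) ntl 2 425 := by decide +kernel
theorem bchk0 : blkChkT (ntOf He2058.ntl) (e0.letters He2058.INVm) (tb PTH 12) (tb HI0 9)
    (tb BLK 7) (tb TAB0 7) 425 := by decide +kernel
theorem bkOK : ∀ i < 425, tb BK 9 (tb PTH 12 i) = i := by decide +kernel
theorem blOK : ∀ i < 425, tb BLK 7 i < 85 := by decide +kernel
theorem blSurj : ∀ b < 85, ∃ i < 425, tb BLK 7 i = b := by decide +kernel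

theorem cardH : Nat.card HH = 2 * 979200 := by
  have h1 := Cfsg.Agent.S1683.result.1
  have h2 := Cfsg.Agent.S1695.result.2
  have h3 := HH.card_mul_index
  rw [h2] at h3
  have h4 : HH.index = 2058 := h1
  rw [h4] at h3
  omega

theorem memL (x : FreeGroup Gen)
    (hx : x ∈ ({a, c, d, e, f, (a * b) ^ 2, (b * c * d * e) ^ 7} : Set (FreeGroup Gen))) :
    mkHe x ∈ HH := Subgroup.mem_map_of_mem _ (Subgroup.subset_closure hx)

/-- the field automorphism on the points -/
def sig0 : Equiv.Perm (Fin 85) := (SW.map (fun p => Equiv.swap p.1 p.2)).prod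

theorem sig0_tab : ∀ b : Fin 85, (sig0 b : ℕ) = tb TAB0 7 b := by decide +kernel

theorem sign_sig0 : Equiv.Perm.sign sig0 = -1 := by
  have h : ∀ g ∈ SW.map (fun p => Equiv.swap p.1 p.2), g.IsSwap := by
    intro g hg
    obtain ⟨p, hp, rfl⟩ := List.mem_map.1 hg
    have : ∀ p ∈ SW, p.1 ≠ p.2 := by decide
    exact ⟨p.1, p.2, this p hp, rfl⟩
  have h2 := Equiv.Perm.sign_prod_list_swap h
  rw [sig0, h2]
  rfl

theorem sign_of_odd (σ : Equiv.Perm (Fin 85)) (k : ℕ) (h : σ ^ (2 * k + 1) = 1) :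
    Equiv.Perm.sign σ = 1 := by
  have h1 := congrArg Equiv.Perm.sign h
  rw [map_pow, map_one] at h1
  rcases Int.units_eq_one_or (Equiv.Perm.sign σ) with h2 | h2
  · exact h2
  · rw [h2, pow_succ, pow_mul] at h1
    simp at h1

theorem sign_gens : ∀ x ∈ [1, 2], vL ntl deg x ∈ (Equiv.Perm.sign (α := Fin 85)).ker := by
  intro x hx
  simp only [List.mem_cons, List.mem_nil_iff, or_false] at hx
  rw [MonoidHom.mem_ker]
  rcases hx with rfl | rfl
  · apply sign_of_odd _ 1
    have := setup.rel_of_wordId (List.replicate 3 1) (by decide +kernel)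
    rw [List.map_replicate, List.prod_replicate] at this
    exact this
  · apply sign_of_odd _ 2
    have := setup.rel_of_wordId (List.replicate 5 2) (by decide +kernel)
    rw [List.map_replicate, List.prod_replicate] at this
    exact this

/-- the graph -/
noncomputable abbrev SS : Subgroup (Cfsg.Spor.He × Equiv.Perm (Fin 85)) :=
  blkGraph He2058.psi (fun i : Fin 425 => tb PTH 12 i)
    (fun i : Fin 425 => (⟨tb BLK 7 i, blOK i i.2⟩ : Fin 85))

theorem hpt : Function.Injective (fun i : Fin 425 => tb PTH 12 i) :=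
  inj_of_leftInv 425 _ (tb BK 9) bkOK

theorem hfun (σ : Equiv.Perm (Fin 85)) (h : ((1 : Cfsg.Spor.He), σ) ∈ SS) : σ = 1 := by
  apply blkGraph_fun _ _ _ hpt _ σ h
  intro b
  obtain ⟨i, hi, hb⟩ := blSurj b b.2
  exact ⟨⟨i, hi⟩, Fin.ext hb⟩

theorem main : ∃ K : Subgroup HH, K.Normal ∧ K.index = 2 ∧
    Nonempty (K ≃* lgrp (vL ntl deg) [1, 2]) := by
  have hv1 : vG 1 = mkHe (e1.eval (fun l => He2058.LTFm.getD l 1)) := by simp [vG]
  have hv2 : vG 2 = mkHe (e2.eval (fun l => He2058.LTFm.getD l 1)) := by simp [vG]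
  have h1 : mkHe (He2058.LTFm.getD 1 1) ∈ HH := memL a (by simp)
  have h3 : mkHe (He2058.LTFm.getD 3 1) ∈ HH := memL c (by simp)
  have h4 : mkHe (He2058.LTFm.getD 4 1) ∈ HH := memL d (by simp)
  have h5 : mkHe (He2058.LTFm.getD 5 1) ∈ HH := memL e (by simp)
  have h6 : mkHe (He2058.LTFm.getD 6 1) ∈ HH := memL f (by simp)
  have h7 : mkHe ((He2058.LTFm.getD 1 1 * He2058.LTFm.getD 2 1) ^ 2) ∈ HH :=
    memL ((a * b) ^ 2) (by simp)
  have h8 : mkHe ((He2058.LTFm.getD 2 1 * He2058.LTFm.getD 3 1 * He2058.LTFm.getD 4 1 *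
      He2058.LTFm.getD 5 1) ^ 7) ∈ HH := memL ((b * c * d * e) ^ 7) (by simp)
  have hs0 : (mkHe (e0.eval (fun l => He2058.LTFm.getD l 1)), sig0) ∈ SS :=
    mem_blkGraph_of_chkT He2058.psi (ntOf He2058.ntl) _ (ntOf_ok He2058.ntl _ He2058.netsOK)
      _ _ (He2058.psi_eval e0) 425 85 _ _ _ blOK hpt _ sig0 sig0_tab bchk0
  refine index_two_of_graph SS hfun vG (vL ntl deg) [1, 2] ?_ HH ?_ 979200 (by norm_num) card_eq
    cardH (mkHe (e0.eval (fun l => He2058.LTFm.getD l 1))) h7 ?_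
  · intro x hx
    simp only [List.mem_cons, List.mem_nil_iff, or_false] at hx
    rcases hx with rfl | rfl
    · rw [hv1]
      exact setup.mem_blkGraph_of_chk He2058.psi (ntOf He2058.ntl) _
        (ntOf_ok He2058.ntl _ He2058.netsOK) _ _ (He2058.psi_eval e1) 425 _ _ _ blOK hpt 1 bchk1
    · rw [hv2]
      exact setup.mem_blkGraph_of_chk He2058.psi (ntOf He2058.ntl) _
        (ntOf_ok He2058.ntl _ He2058.netsOK) _ _ (He2058.psi_eval e2) 425 _ _ _ blOK hpt 2 bchk2
  · intro x hx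
    simp only [List.mem_cons, List.mem_nil_iff, or_false] at hx
    rcases hx with rfl | rfl
    · rw [hv1]
      simp only [e1, WExp.eval, map_mul]
      repeat' apply Subgroup.mul_mem
      all_goals assumption
    · rw [hv2]
      simp only [e2, WExp.eval, map_mul]
      repeat' apply Subgroup.mul_mem
      all_goals assumption
  · intro σ hσ hmem
    have h9 : ((1 : Cfsg.Spor.He), sig0⁻¹ * σ) ∈ SS := by
      have := SS.mul_mem (SS.inv_mem hs0) hmem
      simpa using this
    have h10 := hfun _ h9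
    have h11 : σ = sig0 := by
      rw [inv_mul_eq_one] at h10
      exact h10.symm
    have h12 : Equiv.Perm.sign σ = 1 := (lgrp_le _ sign_gens) hσ
    rw [h11, sign_sig0] at h12
    exact absurd h12 (by decide)

end Cfsg.Agent.Lib.Helper3.S44
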