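import Cfsg.Agent.Lib.Helper3.S44.Mat
import Cfsg.Agent.S0245

set_option autoImplicit false
set_option maxRecDepth 100000

namespace Cfsg.Agent.Lib.Helper3.S44

open Cfsg.Agent.Lib.Helper11 Cfsg.Agent.Lib.Helper3 Matrix

set_option maxHeartbeats 0

/-- the index type -/
abbrev II : Type := Fin 2 ⊕ Fin 2

/-- numbering of the coordinates -/
def ee : II ≃ Fin 4 where
  toFun
    | .inl i => ⟨i.val, by omega⟩
    | .inr i => ⟨2 + i.val, by omega⟩
  invFun k := if h : k.val < 2 then .inl ⟨k.val, h⟩ else .inr ⟨k.val - 2, by omega⟩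
  left_inv := by decide
  right_inv := by decide

/-- the symplectic group -/
abbrev Sp4 : Type := Matrix.symplecticGroup (Fin 2) F4

theorem symA : toM ee AL * Matrix.J (Fin 2) F4 * (toM ee AL)ᵀ = Matrix.J (Fin 2) F4 := by
  decide +kernel
theorem symB : toM ee BL * Matrix.J (Fin 2) F4 * (toM ee BL)ᵀ = Matrix.J (Fin 2) F4 := by
  decide +kernel

def gA : Sp4 := ⟨toM ee AL, SymplecticGroup.mem_iff.2 symA⟩
def gB : Sp4 := ⟨toM ee BL, SymplecticGroup.mem_iff.2 symB⟩

def TT : Sp4 →* Matrix II II F4 := (Matrix.symplecticGroup (Fin 2) F4).subtype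

theorem TT_inj : Function.Injective TT := Subtype.val_injective

def vM (l : ℕ) : Sp4 := if l = 1 then gA else if l = 2 then gB else 1

theorem card_sp : Nat.card Sp4 = 979200 := by
  have h := Cfsg.Agent.S0245.result (F := F4) (q := 4) F4.card_eq 2
  have h2 : (∏ i ∈ Finset.range 2, (4 ^ (2 * (i + 1)) - 1)) = 3825 := by decide
  rw [h2] at h
  rw [h]; norm_num

def pp : Fin 85 → II → F4 := fun i => toV ee (pt i)

def frB : II → Fin 85 := fun k => ⟨frBL.getD (ee k) 0 % 85, Nat.mod_lt _ (by norm_num)⟩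

theorem scal_one : ∀ c0 : F4, (c0 • (1 : Matrix II II F4)) * Matrix.J (Fin 2) F4 *
    (c0 • (1 : Matrix II II F4))ᵀ = Matrix.J (Fin 2) F4 → c0 = 1 := by decide +kernel

theorem sp_iso : Nonempty (Sp4 ≃* lgrp (vL ntl deg) [1, 2]) := by
  have h : Nonempty ((Sp4 ⧸ (⊥ : Subgroup Sp4)) ≃* lgrp (vL ntl deg) [1, 2]) := by
    apply quot_iso_of_graph (projGraph TT pp) (⊥ : Subgroup Sp4)
      _ vM (vL ntl deg) [1, 2] _ simple 979200 card_eq _ (by norm_num)
    · refine ⟨1, by simp, ?_⟩
      intro h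
      have h1 : gA = 1 := Subgroup.mem_bot.1 h
      have h2 : toM ee AL = 1 := congrArg TT h1
      revert h2
      decide +kernel
    · intro g hg
      obtain ⟨c0, hc⟩ := scalar_of_projGraph TT pp frB frI (toM ee frInvL) (toV ee frAL)
        (by decide +kernel) (by decide +kernel) (by decide +kernel) g hg
      have h1 := SymplecticGroup.mem_iff.1 g.2
      have hc' : (g : Matrix II II F4) = c0 • (1 : Matrix II II F4) := hc
      rw [hc'] at h1
      have h2 := scal_one c0 h1
      rw [Subgroup.mem_bot]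
      apply TT_inj
      rw [hc, h2, one_smul, map_one]
    · intro x hx
      simp only [List.mem_cons, List.mem_nil_iff, or_false] at hx
      rcases hx with rfl | rfl
      · exact setup.mem_projGraph_of_chkW TT gA ee [AL] (by decide) (by simp; rfl) pt
          (fun i => ptOf_length _ _ _ _ _) _ _ 1 chk1
      · exact setup.mem_projGraph_of_chkW TT gB ee [BL] (by decide) (by simp; rfl) pt
          (fun i => ptOf_length _ _ _ _ _) _ _ 2 chk2
    · rw [Nat.card_congr (QuotientGroup.quotientBot (G := Sp4)).toEquiv, card_sp]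
  obtain ⟨e⟩ := h
  exact ⟨(QuotientGroup.quotientBot (G := Sp4)).symm.trans e⟩

end Cfsg.Agent.Lib.Helper3.S44
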