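import Mathlib

set_option autoImplicit false
set_option maxRecDepth 100000

namespace Cfsg.Agent.Lib.Helper3.S44.L4

noncomputable def fc0_0 (i : ℕ) : ℕ := (nat_lit 0x300004d00000200006d00000100006e00000300002e00000000004e00000200000e00000000002d00000100000d)
noncomputable def sc0_0 (i : ℕ) : ℕ := (nat_lit 0x1000005000002000300010000ffff0000ffff0000ffff)
noncomputable def nc0_0 (i : ℕ) : ℕ := (nat_lit 0x3000002000001000000)
noncomputable def cc0_0 (i : ℕ) : ℕ := (nat_lit 0x1000004000002000007000000000002000003000006000003000005000000000000000002000003000001000001)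

end Cfsg.Agent.Lib.Helper3.S44.L4
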